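import Cfsg.Agent.Chars.Fi22GL78.Defs

/-!
# Relators, part 0
-/

set_option autoImplicit false
set_option maxRecDepth 20000

namespace Cfsg.Agent.Chars.Fi22GL78

theorem facs_ok0 : ((facs.drop 0).take 16).all (fun b => relChk b.1 b.2) = true := by decide +kernel

end Cfsg.Agent.Chars.Fi22GL78
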