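import Cfsg.Agent.Chars.Fi22GL78.Packed
import Cfsg.Agent.Chars.Fi22GL78.Data

/-!
# Programs on packed matrices
-/

set_option autoImplicit false
set_option maxRecDepth 20000

namespace Cfsg.Agent.Chars.Fi22GL78

open Cfsg.Agent.Screen.CosetEnum

/-- The packed generator. -/
def mp (x : ℕ) : List ℕ := mats.getD x idP

/-- The packed value of a word. -/
def prodP : List ℕ → List ℕ
  | [] => idP
  | [x] => mp x
  | x :: y :: w => mulP (prodP (y :: w)) (mp x)

/-- The packed value of a word, evaluated before it is passed on. -/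
def prodK {α : Type} : List ℕ → (List ℕ → α) → α
  | [], k => k idP
  | [x], k => k (mp x)
  | x :: y :: w, k => prodK (y :: w) fun P => mulK P (mp x) k

theorem prodK_eq {α : Type} : ∀ (w : List ℕ) (k : List ℕ → α), prodK w k = k (prodP w)
  | [], k => rfl
  | [x], k => rfl
  | x :: y :: w, k => by rw [prodK, prodK_eq (y :: w), mulK_eq]; rfl

/-- A packed power. -/
def powP (P : List ℕ) : ℕ → List ℕ
  | 0 => idP
  | 1 => P
  | m + 2 => mulP (powP P (m + 1)) P

/-- A packed power, evaluated before it is passed on. -/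
def powK {α : Type} (P : List ℕ) : ℕ → (List ℕ → α) → α
  | 0, k => k idP
  | 1, k => k P
  | m + 2, k => powK P (m + 1) fun Q => mulK Q P k

theorem powK_eq {α : Type} (P : List ℕ) : ∀ (m : ℕ) (k : List ℕ → α), powK P m k = k (powP P m)
  | 0, k => rfl
  | 1, k => rfl
  | m + 2, k => by rw [powK, powK_eq P (m + 1), mulK_eq]; rfl

/-- Equality of lists. -/
def eqL : List ℕ → List ℕ → Bool
  | [], [] => true
  | a :: l, b :: r => Nat.beq a b && eqL l r
  | _, _ => false

theorem eqL_spec : ∀ {l r : List ℕ}, eqL l r = true → l = r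
  | [], [], _ => rfl
  | a :: l, b :: r, h => by
    simp only [eqL, Bool.and_eq_true] at h
    rw [Nat.eq_of_beq_eq_true h.1, eqL_spec h.2]
  | [], _ :: _, h => by simp [eqL] at h
  | _ :: _, [], h => by simp [eqL] at h

/-- A relator holds. -/
def relChk (w : List ℕ) (m : ℕ) : Bool := prodK w fun P => powK P m fun Q => eqL Q idP

end Cfsg.Agent.Chars.Fi22GL78
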