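import Cfsg.Agent.Chars.Fi22GL78.Defs
import Cfsg.Agent.Chars.Fi22GL78.Check0
import Cfsg.Agent.Chars.Fi22GL78.Check1
import Cfsg.Agent.Chars.Fi22GL78.Check2
import Cfsg.Agent.Chars.Fi22GL78.Check3
import Cfsg.Agent.Screen.CosetEnum.PresFi22

/-!
# The relations of `Fi22` hold for the nine matrices
-/

set_option autoImplicit false
set_option maxRecDepth 20000

namespace Cfsg.Agent.Chars.Fi22GL78

open Cfsg.Agent.Screen.CosetEnum

theorem valid_ok : ∀ x < 9, (mp x).length = 78 ∧ validGo (mp x) = true := by decide +kernel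

theorem facs_split : facs = (facs.drop 0).take 16 ++ ((facs.drop 16).take 16 ++ ((facs.drop 32).take 6 ++ (facs.drop 38).take 11)) := by
  decide +kernel

theorem facs_ok : facs.all (fun b => relChk b.1 b.2) = true := by
  rw [facs_split, List.all_append, List.all_append, List.all_append, facs_ok0, facs_ok1, facs_ok2, facs_ok3]
  rfl

theorem facs_rel : facs.map (fun b => pw b.2 b.1) = PresFi22.relList := by decide +kernel

theorem facs_letters : ∀ b ∈ facs, ∀ x ∈ b.1, x < 9 := by decide +kernel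

/-- The matrix of a generator. -/
def mm (x : ℕ) : Matrix (Fin 78) (Fin 78) (ZMod 13) := toMat (mp x)

theorem rep_mm {x : ℕ} (hx : x < 9) : Rep (mp x) (mm x) := rep_toMat (valid_ok x hx).1 (valid_ok x hx).2

theorem mm_sq {x : ℕ} (hx : x < 9) : mm x * mm x = 1 := by
  have h := sq_ok x hx
  rw [relChk, prodK_eq, powK_eq] at h
  have r : Rep (powP (prodP [x]) 2) (mm x * mm x) := rep_mul (rep_mm hx) (rep_mm hx)
  rw [eqL_spec h] at r
  exact rep_unique r rep_one

/-- The generator in the general linear group. -/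
def sig (x : ℕ) : GL (Fin 78) (ZMod 13) :=
  if hx : x < 9 then ⟨mm x, mm x, mm_sq hx, mm_sq hx⟩ else 1

theorem sig_sq (x : ℕ) : sig x * sig x = 1 := by
  by_cases hx : x < 9
  · rw [sig, dif_pos hx]; exact Units.ext (mm_sq hx)
  · simp [sig, hx]

theorem sig_val {x : ℕ} (hx : x < 9) :
    ((sig x : GL (Fin 78) (ZMod 13)) : Matrix (Fin 78) (Fin 78) (ZMod 13)) = mm x := by
  rw [sig, dif_pos hx]

theorem rep_word : ∀ (w : List ℕ), (∀ x ∈ w, x < 9) →
    Rep (prodP w) ((evalW sig w : GL (Fin 78) (ZMod 13)) : Matrix (Fin 78) (Fin 78) (ZMod 13))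
  | [], _ => by rw [prodP, evalW, Units.val_one]; exact rep_one
  | [x], hw => by
    rw [prodP, evalW, evalW, one_mul, sig_val (hw x List.mem_cons_self)]
    exact rep_mm (hw x List.mem_cons_self)
  | x :: y :: w, hw => by
    have hx := hw x List.mem_cons_self
    rw [prodP, evalW, Units.val_mul, sig_val hx]
    exact rep_mul (rep_word (y :: w) fun z hz => hw z (List.mem_cons_of_mem _ hz)) (rep_mm hx)

theorem rep_pow {P : List ℕ} {M : Matrix (Fin 78) (Fin 78) (ZMod 13)} (h : Rep P M) :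
    ∀ m : ℕ, Rep (powP P m) (M ^ m)
  | 0 => by rw [powP, pow_zero]; exact rep_one
  | 1 => by rw [powP, pow_one]; exact h
  | m + 2 => by rw [powP, pow_succ]; exact rep_mul (rep_pow h (m + 1)) h

attribute [local irreducible] mp mats prodP powP idP mulP validGo facs

theorem rels : ∀ w ∈ PresFi22.relList, evalW sig w = 1 := by
  intro w hw
  rw [← facs_rel, List.mem_map] at hw
  obtain ⟨b, hb, rfl⟩ := hw
  have h := List.all_eq_true.1 facs_ok b hb
  rw [relChk, prodK_eq, powK_eq] at h
  have r := rep_pow (rep_word b.1 (facs_letters b hb)) b.2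
  rw [eqL_spec h] at r
  rw [evalW_pw]
  exact Units.ext (by rw [Units.val_pow_eq_pow_val, rep_unique r rep_one]; rfl)

theorem sig_one_ne : sig 1 ≠ 1 := by
  intro h
  have r : Rep (prodP [1]) ((evalW sig [1] : GL (Fin 78) (ZMod 13)) : Matrix (Fin 78) (Fin 78) (ZMod 13)) :=
    rep_word [1] (by decide)
  rw [evalW, evalW, one_mul, h, Units.val_one] at r
  obtain ⟨f, hf, e, hM⟩ := r
  obtain ⟨g, hg, e', hN⟩ := rep_one
  have hL : prodP [1] = idP := by
    rw [e, e']
    refine List.map_congr_left fun i hi => pk_congr 78 fun j hj => ?_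
    have h1 := (hM ⟨i, List.mem_range.1 hi⟩ ⟨j, hj⟩).symm.trans (hN ⟨i, List.mem_range.1 hi⟩ ⟨j, hj⟩)
    rw [ZMod.natCast_eq_natCast_iff', Nat.mod_eq_of_lt (hf i j), Nat.mod_eq_of_lt (hg i j)] at h1
    exact h1
  have hc : eqL (prodP [1]) idP = false ∧ eqL idP idP = true := by decide +kernel
  rw [hL] at hc
  exact absurd (hc.1.symm.trans hc.2) Bool.false_ne_true

end Cfsg.Agent.Chars.Fi22GL78
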