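import Cfsg.Agent.Chars.Fi22GL78.Hom

/-!
# Injectivity into the general linear group
-/

set_option autoImplicit false
set_option maxRecDepth 20000

namespace Cfsg.Agent.Chars.Fi22GL78

attribute [local irreducible] sig mats mp mm toMat

theorem sig_one_val_ne : ((sig 1 : GL (Fin 78) (ZMod 13)) : Matrix (Fin 78) (Fin 78) (ZMod 13)) ≠ 1 :=
  fun h => sig_one_ne (Units.ext h)

/-- A homomorphism out of a simple group that hits a nontrivial matrix is injective. -/
theorem injective_of_val_ne {G R : Type*} [Group G] [Monoid R] (hG : IsSimpleGroup G) (f : G →* Rˣ) (x : G)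
    (y : Rˣ) (h : f x = y) (hy : (y : R) ≠ 1) : Function.Injective f := by
  haveI := hG
  refine (MonoidHom.ker_eq_bot_iff f).1 ((MonoidHom.normal_ker f).eq_bot_or_eq_top.resolve_right fun ht => hy ?_)
  have h1 : f x = 1 := MonoidHom.mem_ker.1 (by rw [ht]; trivial)
  rw [← h, h1, Units.val_one]

open Cfsg.Agent.Screen.CosetEnum in
theorem exists_hom_units {R : Type} [Monoid R] (σ : ℕ → Rˣ) (hs : ∀ x, σ x * σ x = 1)
    (h : ∀ w ∈ PresFi22.relList, evalW σ w = 1) (hG : IsSimpleGroup Cfsg.Spor.Fi22) (hne : (σ 1 : R) ≠ 1) :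
    ∃ f : Cfsg.Spor.Fi22 →* Rˣ, Function.Injective f := by
  obtain ⟨f, hf⟩ := PresFi22.exists_hom σ hs h
  exact ⟨f, injective_of_val_ne hG f _ (σ 1) (hf 1 (by norm_num)) hne⟩

theorem exists_injective (hG : IsSimpleGroup Cfsg.Spor.Fi22) :
    ∃ f : Cfsg.Spor.Fi22 →* GL (Fin 78) (ZMod 13), Function.Injective f :=
  exists_hom_units sig sig_sq rels hG sig_one_val_ne

end Cfsg.Agent.Chars.Fi22GL78
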