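import Cfsg.Agent.Screen.CosetEnum.Core

/-!
# Matrices modulo 13 with each row packed into one number
-/

set_option autoImplicit false
set_option maxRecDepth 20000

namespace Cfsg.Agent.Chars.Fi22GL78

open Cfsg.Agent.Screen.CosetEnum

/-- The base of the packing. -/
def BS : ℕ := 65536

/-- Pack `k` digits. -/
def pk : ℕ → (ℕ → ℕ) → ℕ
  | 0, _ => 0
  | k + 1, f => f 0 + BS * pk k fun j => f (j + 1)

/-- Digit `j`. -/
def digit (R j : ℕ) : ℕ := R / BS ^ j % BS

/-- Reduce each of `k` digits modulo 13. -/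
def red : ℕ → ℕ → ℕ
  | 0, _ => 0
  | k + 1, R => force R fun R => R % BS % 13 + BS * red k (R / BS)

/-- Combine rows with the digits of `R` as coefficients. -/
def acc : List ℕ → ℕ → ℕ
  | [], _ => 0
  | row :: rs, R => force R fun R => R % BS * row + acc rs (R / BS)

/-- The row of a product. -/
def rowMul (L : List ℕ) (R : ℕ) : ℕ := red 78 (acc L R)

/-- The product. -/
def mulP (A L : List ℕ) : List ℕ := A.map (rowMul L)

/-- The product, evaluated before it is passed on. -/
def mulK {α : Type} : List ℕ → List ℕ → (List ℕ → α) → α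
  | [], _, k => k []
  | R :: A, L, k => force (rowMul L R) fun v => mulK A L fun l => k (v :: l)

theorem mulK_eq {α : Type} : ∀ (A L : List ℕ) (k : List ℕ → α), mulK A L k = k (mulP A L)
  | [], L, k => rfl
  | R :: A, L, k => by rw [mulK, force_eq, mulK_eq A L]; rfl

theorem pk_congr : ∀ (k : ℕ) {f g : ℕ → ℕ}, (∀ j < k, f j = g j) → pk k f = pk k g
  | 0, _, _, _ => rfl
  | k + 1, _, _, h => by
    rw [pk, pk, h 0 (Nat.succ_pos k), pk_congr k fun j hj => h (j + 1) (by omega)]

theorem pk_add : ∀ (k : ℕ) (f g : ℕ → ℕ), pk k (fun j => f j + g j) = pk k f + pk k g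
  | 0, _, _ => rfl
  | k + 1, f, g => by rw [pk, pk, pk, pk_add k (fun j => f (j + 1)) (fun j => g (j + 1))]; ring

theorem pk_mul : ∀ (k : ℕ) (c : ℕ) (f : ℕ → ℕ), pk k (fun j => c * f j) = c * pk k f
  | 0, _, _ => by simp [pk]
  | k + 1, c, f => by rw [pk, pk, pk_mul k c (fun j => f (j + 1))]; ring

theorem pk_zero : ∀ k : ℕ, pk k (fun _ => 0) = 0
  | 0 => rfl
  | k + 1 => by rw [pk, pk_zero k, Nat.mul_zero]

theorem pk_div {f : ℕ → ℕ} (k : ℕ) (h : f 0 < BS) :
    pk (k + 1) f % BS = f 0 ∧ pk (k + 1) f / BS = pk k fun j => f (j + 1) := by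
  constructor
  · rw [pk, Nat.add_mul_mod_self_left, Nat.mod_eq_of_lt h]
  · rw [pk, Nat.add_mul_div_left _ _ (show 0 < BS by decide), Nat.div_eq_of_lt h, Nat.zero_add]

theorem red_eq : ∀ k R : ℕ, red k R = pk k fun j => digit R j % 13
  | 0, _ => rfl
  | k + 1, R => by
    rw [red, force_eq, red_eq k, pk]
    congr 1
    · simp [digit]
    · congr 1
      refine pk_congr k fun j _ => ?_
      rw [digit, digit, pow_succ', ← Nat.div_div_eq_div_mul]

theorem digit_pk : ∀ (k : ℕ) {f : ℕ → ℕ}, (∀ j < k, f j < BS) → ∀ j < k, digit (pk k f) j = f j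
  | 0, _, _, j, hj => absurd hj (Nat.not_lt_zero j)
  | k + 1, f, h, j, hj => by
    obtain ⟨h1, h2⟩ := pk_div (f := f) k (h 0 (Nat.succ_pos k))
    cases j with
    | zero => simpa [digit] using h1
    | succ j =>
      rw [digit, pow_succ', ← Nat.div_div_eq_div_mul, h2]
      exact digit_pk k (fun i hi => h (i + 1) (by omega)) j (by omega)

theorem acc_eq : ∀ (k n : ℕ) (a : ℕ → ℕ) (g : ℕ → ℕ → ℕ), (∀ i < k, a i < BS) →
    acc ((List.range k).map fun i => pk n (g i)) (pk k a) =
      pk n fun j => ∑ i ∈ Finset.range k, a i * g i j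
  | 0, n, a, g, _ => by simp [acc, pk_zero]
  | k + 1, n, a, g, h => by
    obtain ⟨h1, h2⟩ := pk_div (f := a) k (h 0 (Nat.succ_pos k))
    rw [List.range_succ_eq_map, List.map_cons, List.map_map, acc, force_eq, h1, h2]
    rw [show ((fun i => pk n (g i)) ∘ Nat.succ) = fun i => pk n ((fun i => g (i + 1)) i) from rfl,
      acc_eq k n (fun i => a (i + 1)) (fun i => g (i + 1)) (fun i hi => h (i + 1) (by omega)),
      ← pk_mul, ← pk_add]
    refine pk_congr n fun j _ => ?_
    rw [Finset.sum_range_succ']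
    ring

theorem red_acc (k n : ℕ) (a : ℕ → ℕ) (g : ℕ → ℕ → ℕ) (ha : ∀ i < k, a i < BS)
    (hs : ∀ j < n, ∑ i ∈ Finset.range k, a i * g i j < BS) :
    red n (acc ((List.range k).map fun i => pk n (g i)) (pk k a)) =
      pk n fun j => (∑ i ∈ Finset.range k, a i * g i j) % 13 := by
  rw [acc_eq k n a g ha, red_eq]
  exact pk_congr n fun j hj => by rw [digit_pk n hs j hj]

attribute [local irreducible] pk red acc

/-- The packed list `L` stands for the matrix `M`. -/
def Rep (L : List ℕ) (M : Matrix (Fin 78) (Fin 78) (ZMod 13)) : Prop :=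
  ∃ f : ℕ → ℕ → ℕ, (∀ i j, f i j < 13) ∧ L = (List.range 78).map (fun i => pk 78 (f i)) ∧
    ∀ i j : Fin 78, M i j = (f i j : ZMod 13)

theorem rep_mul {A L : List ℕ} {M N : Matrix (Fin 78) (Fin 78) (ZMod 13)} (hA : Rep A M) (hL : Rep L N) :
    Rep (mulP A L) (M * N) := by
  obtain ⟨a, ha, rfl, hM⟩ := hA
  obtain ⟨b, hb, rfl, hN⟩ := hL
  refine ⟨fun i j => (∑ t ∈ Finset.range 78, a i t * b t j) % 13, fun i j => Nat.mod_lt _ (by norm_num), ?_, ?_⟩
  · rw [mulP, List.map_map]
    refine List.map_congr_left fun i _ => ?_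
    rw [Function.comp_apply, rowMul]
    exact red_acc 78 78 (a i) b (fun t _ => lt_trans (ha i t) (by decide)) fun u _ =>
      lt_of_le_of_lt (Finset.sum_le_sum fun t _ =>
        Nat.mul_le_mul (Nat.lt_succ_iff.1 (ha i t)) (Nat.lt_succ_iff.1 (hb t u))) (by
        rw [Finset.sum_const, Finset.card_range, smul_eq_mul]; decide)
  · intro i j
    rw [Matrix.mul_apply, ZMod.natCast_mod, Nat.cast_sum,
      ← Fin.sum_univ_eq_sum_range (fun t => ((a i t * b t j : ℕ) : ZMod 13)) 78]
    refine Finset.sum_congr rfl fun t _ => ?_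
    rw [hM, hN, Nat.cast_mul]

theorem rep_unique {L : List ℕ} {M N : Matrix (Fin 78) (Fin 78) (ZMod 13)} (hM : Rep L M) (hN : Rep L N) :
    M = N := by
  obtain ⟨a, ha, rfl, hM⟩ := hM
  obtain ⟨b, hb, e, hN⟩ := hN
  ext i j
  rw [hM, hN]
  have h := List.map_inj_left.1 e i.1 (List.mem_range.2 i.2)
  have h' := congrArg (fun R => digit R j.1) h
  simp only [digit_pk 78 (fun u _ => lt_trans (ha i u) (by decide)) j.1 j.2,
    digit_pk 78 (fun u _ => lt_trans (hb i u) (by decide)) j.1 j.2] at h'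
  rw [h']

/-- All rows are reduced. -/
def validGo : List ℕ → Bool
  | [] => true
  | R :: L => Nat.beq (red 78 R) R && validGo L

theorem validGo_spec : ∀ {L : List ℕ}, validGo L = true → ∀ R ∈ L, red 78 R = R
  | [], _, R, hR => by simp at hR
  | S :: L, h, R, hR => by
    simp only [validGo, Bool.and_eq_true] at h
    rcases List.mem_cons.1 hR with rfl | hR
    · exact Nat.eq_of_beq_eq_true h.1
    · exact validGo_spec h.2 R hR

/-- The matrix of a packed list. -/
def toMat (L : List ℕ) : Matrix (Fin 78) (Fin 78) (ZMod 13) := fun i j => ((digit (L.getD i 0) j % 13 : ℕ) : ZMod 13)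

theorem rep_toMat {L : List ℕ} (hlen : L.length = 78) (h : validGo L = true) : Rep L (toMat L) := by
  refine ⟨fun i j => digit (L.getD i 0) j % 13, fun i j => Nat.mod_lt _ (by norm_num), ?_, fun i j => rfl⟩
  refine List.ext_getElem (by simp [hlen]) fun i h1 h2 => ?_
  rw [List.getElem_map, List.getElem_range]
  show L[i] = pk 78 fun j => digit (L.getD i 0) j % 13
  rw [← red_eq, List.getD_eq_getElem _ _ h1, validGo_spec h _ (List.getElem_mem h1)]

/-- The identity. -/
def idP : List ℕ := (List.range 78).map fun i => BS ^ i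

theorem rep_one : Rep idP 1 := by
  refine ⟨fun i j => if i = j then 1 else 0, fun i j => by dsimp only; split <;> norm_num, ?_, ?_⟩
  · decide +kernel
  · intro i j
    by_cases h : i = j
    · subst h; simp
    · simp [h, Fin.val_ne_of_ne h]

end Cfsg.Agent.Chars.Fi22GL78
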